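import Cfsg.Agent.Lib.Mult.Glue
import Cfsg.Agent.Lib.Grp.J2.Main
import Cfsg.Agent.Lib.Mult.J2.P2
import Cfsg.Agent.Lib.Mult.J2.P3
import Cfsg.Agent.Lib.Mult.J2.P5

set_option autoImplicit false
set_option maxRecDepth 100000
set_option Elab.async false

namespace Cfsg.Agent.Mult.J2

open Cfsg.Agent.CG Cfsg.Agent.CG.J2

theorem pb7 : PB PG 7 [] :=
  pb_cyc base card (a := 0) (d := 1) (v := [4]) (by norm_num) (by decide +kernel)

theorem mb : MB PG [2] :=
  PBs.mb (PBs.cons pb2 (PBs.cons pb3 (PBs.cons pb5 (PBs.cons pb7 PBs.nil)))) card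
    (primes_of_eq_prod (ps := [2,3,5,7]) (es := [7,3,2,1]) (by simp only [List.forall_mem_cons]; norm_num) (by decide +kernel))

end Cfsg.Agent.Mult.J2
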